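import Mathlib

/-! Ladder PI (S2577): involution classes of `PGL_n(q)`, `q` odd.  Definitions. -/

set_option autoImplicit false

namespace Cfsg.Agent.Lib.Helper65.PI

open Module

/-- The maximal dimension of an eigenspace of `T` (over a finite field). -/
noncomputable def mx {F : Type*} [Field F] [Fintype F] {V : Type*} [AddCommGroup V] [Module F V]
    (T : V →ₗ[F] V) : ℕ :=
  Finset.univ.sup fun μ : F => finrank F (End.eigenspace T μ)

/-- The invariant on `PGL_n(F)`. -/
noncomputable def pinv {F : Type*} [Field F] [Fintype F] (n : ℕ)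
    (x : GL (Fin n) F ⧸ Subgroup.center (GL (Fin n) F)) : ℕ :=
  mx (Matrix.toLin' ((Quotient.out x : GL (Fin n) F) : Matrix (Fin n) (Fin n) F))

end Cfsg.Agent.Lib.Helper65.PI
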