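import Cfsg.Agent.Lib.Helper65.PI.LinB

/-! Ladder PI (S2577): existence of the representatives, abstract counting. -/

set_option autoImplicit false

namespace Cfsg.Agent.Lib.Helper65.PI

open Module

section mat
variable {F : Type*} [Field F]

theorem ex_center_val {n : ℕ} {z : GL (Fin n) F} (hz : z ∈ Subgroup.center (GL (Fin n) F)) :
    ∃ c : F, c ≠ 0 ∧ (z : Matrix (Fin n) (Fin n) F) = c • (1 : Matrix (Fin n) (Fin n) F) := by
  rw [Matrix.GeneralLinearGroup.center_eq_range_scalar] at hz
  obtain ⟨a, rfl⟩ := hz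
  refine ⟨(a : F), a.ne_zero, ?_⟩
  simp [Matrix.smul_one_eq_diagonal]

theorem ex_mem_center {n : ℕ} {z : GL (Fin n) F} (c : F)
    (hz : (z : Matrix (Fin n) (Fin n) F) = c • (1 : Matrix (Fin n) (Fin n) F)) :
    z ∈ Subgroup.center (GL (Fin n) F) := by
  rw [Matrix.GeneralLinearGroup.mem_center_iff_val_mem_range_scalar]
  exact ⟨c, by rw [hz]; simp [Matrix.smul_one_eq_diagonal]⟩

open Classical in
theorem ex_finrank_ker_diag {n : ℕ} (w : Fin n → F) :
    finrank F (LinearMap.ker (Matrix.toLin' (Matrix.diagonal w))) + Fintype.card {i // w i ≠ 0}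
      = n := by
  have h1 := LinearMap.finrank_range_add_finrank_ker (Matrix.toLin' (Matrix.diagonal w))
  rw [Module.finrank_fin_fun] at h1
  have h2 := Matrix.rank_diagonal w
  rw [Matrix.rank, ← Matrix.toLin'_apply'] at h2
  omega

open Classical in
/-- [EXA] -/
theorem exists_typeA [Fintype F] (h2 : (2 : F) ≠ 0) (n j : ℕ) (hj : 1 ≤ j) (hj2 : j ≤ n / 2) :
    ∃ g : GL (Fin n) F, g * g = 1 ∧ g ∉ Subgroup.center (GL (Fin n) F) ∧
      mx (Matrix.toLin' (g : Matrix (Fin n) (Fin n) F)) = n - j := by
  let d : Fin n → F := fun i => if i.1 < j then -1 else 1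
  have hdd : ∀ i, d i * d i = 1 := by
    intro i
    simp only [d]
    split_ifs <;> simp
  have hD : Matrix.diagonal d * Matrix.diagonal d = 1 := by
    rw [Matrix.diagonal_mul_diagonal]
    simp only [hdd]
    exact Matrix.diagonal_one
  let g : GL (Fin n) F := ⟨Matrix.diagonal d, Matrix.diagonal d, hD, hD⟩
  refine ⟨g, Units.ext hD, ?_, ?_⟩
  · intro hz
    obtain ⟨c, -, hc⟩ := ex_center_val hz
    have e1 := congrFun (congrFun hc ⟨0, by omega⟩) ⟨0, by omega⟩
    have e2 := congrFun (congrFun hc ⟨n - 1, by omega⟩) ⟨n - 1, by omega⟩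
    simp only [g, Matrix.diagonal_apply_eq, Matrix.smul_apply, Matrix.one_apply_eq, d] at e1 e2
    rw [if_pos (by omega)] at e1
    rw [if_neg (by omega)] at e2
    apply h2
    have : (1 : F) = -1 := e2.trans e1.symm
    linear_combination this
  · have hT : ∀ v, Matrix.toLin' g.1 (Matrix.toLin' g.1 v) = ((1 : F) * 1) • v := by
      intro v
      simp only [Matrix.toLin'_apply, Matrix.mulVec_mulVec]
      show (Matrix.diagonal d * Matrix.diagonal d).mulVec v = _
      rw [hD]; simp
    obtain ⟨a1, a2⟩ := mx_typeA h2 (Matrix.toLin' g.1) 1 one_ne_zero hT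
    rw [Module.finrank_fin_fun] at a2
    have hker : End.eigenspace (Matrix.toLin' g.1) (-1) =
        LinearMap.ker (Matrix.toLin' (Matrix.diagonal (fun i => d i + 1))) := by
      ext v
      rw [End.mem_eigenspace_iff, LinearMap.mem_ker]
      show Matrix.toLin' (Matrix.diagonal d) v = _ ↔ _
      simp only [Matrix.toLin'_apply]
      constructor
      · intro h
        funext i
        have := congrFun h i
        simp only [Matrix.mulVec_diagonal, Pi.smul_apply, smul_eq_mul, Pi.zero_apply] at this ⊢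
        linear_combination this
      · intro h
        funext i
        have := congrFun h i
        simp only [Matrix.mulVec_diagonal, Pi.smul_apply, smul_eq_mul, Pi.zero_apply] at this ⊢
        linear_combination this
    have hcard : Fintype.card {i : Fin n // d i + 1 ≠ 0} = n - j := by
      have : ∀ i : Fin n, d i + 1 ≠ 0 ↔ ¬ (i.1 < j) := by
        intro i
        simp only [d]
        split_ifs with h
        · simp [h]
        · simp only [h, not_false_eq_true, iff_true]
          intro h0
          apply h2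
          linear_combination h0
      rw [Fintype.card_subtype]
      simp only [this]
      have h5 : (Finset.univ.filter fun i : Fin n => ¬ (i.1 < j)).card +
          (Finset.univ.filter fun i : Fin n => (i.1 < j)).card = n := by
        rw [add_comm, Finset.card_filter_add_card_filter_not]; simp
      have h6 : (Finset.univ.filter fun i : Fin n => (i.1 < j)).card = j := by
        rw [Fin.card_filter_val_lt]
        omega
      omega
    have h7 := ex_finrank_ker_diag (fun i => d i + 1)
    rw [← hker, hcard] at h7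
    rw [a1]
    omega

/-- [EXB] -/
theorem exists_typeB [Fintype F] (h2 : (2 : F) ≠ 0) (n : ℕ) (hn : Even n) (hn2 : 2 ≤ n) :
    ∃ g : GL (Fin n) F, g * g ∈ Subgroup.center (GL (Fin n) F) ∧
      g ∉ Subgroup.center (GL (Fin n) F) ∧
      mx (Matrix.toLin' (g : Matrix (Fin n) (Fin n) F)) = 0 := by
  obtain ⟨m, hm⟩ := hn
  have hchar : ringChar F ≠ 2 := by
    intro h
    apply h2
    have := ringChar.Nat.cast_ringChar (R := F)
    rw [h] at this
    exact_mod_cast this
  obtain ⟨l, hl⟩ := FiniteField.exists_nonsquare hchar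
  have hl0 : l ≠ 0 := by
    rintro rfl
    exact hl ⟨0, by simp⟩
  let e : Fin m ⊕ Fin m ≃ Fin n := finSumFinEquiv.trans (finCongr hm.symm)
  let M0 : Matrix (Fin m ⊕ Fin m) (Fin m ⊕ Fin m) F := Matrix.fromBlocks 0 (l • 1) 1 0
  have hM0 : M0 * M0 = l • 1 := by
    simp only [M0, Matrix.fromBlocks_multiply]
    simp only [Matrix.zero_mul, Matrix.mul_zero, Matrix.mul_one, Matrix.one_mul, zero_add, add_zero]
    rw [← Matrix.fromBlocks_one, Matrix.fromBlocks_smul]
    simp
  let M : Matrix (Fin n) (Fin n) F := Matrix.reindex e e M0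
  have hM : M * M = l • 1 := by
    simp only [M, Matrix.reindex_apply]
    rw [Matrix.submatrix_mul_equiv, hM0, Matrix.submatrix_smul]
    show l • Matrix.submatrix (1 : Matrix (Fin m ⊕ Fin m) (Fin m ⊕ Fin m) F) e.symm e.symm = l • 1
    rw [Matrix.submatrix_one_equiv]
  let g : GL (Fin n) F := ⟨M, l⁻¹ • M, by rw [Matrix.mul_smul, hM, smul_smul, inv_mul_cancel₀ hl0, one_smul],
    by rw [Matrix.smul_mul, hM, smul_smul, inv_mul_cancel₀ hl0, one_smul]⟩
  refine ⟨g, ex_mem_center l (by rw [Units.val_mul]; exact hM), ?_, ?_⟩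
  · intro hz
    obtain ⟨c, -, hc⟩ := ex_center_val hz
    apply hl
    refine ⟨c, ?_⟩
    have h3 : M * M = (c * c) • 1 := by
      have : M = c • 1 := hc
      rw [this]; simp [smul_smul]
    rw [hM] at h3
    have := congrFun (congrFun h3 ⟨0, by omega⟩) ⟨0, by omega⟩
    simpa using this
  · apply mx_typeB _ l hl
    intro v
    simp only [Matrix.toLin'_apply, Matrix.mulVec_mulVec]
    show (M * M).mulVec v = _
    rw [hM]; simp [Matrix.smul_mulVec]

end mat

/-- [ORD] -/
theorem orderOf_mk_eq_two_iff {G : Type*} [Group G] (Z : Subgroup G) [Z.Normal] (g : G) :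
    orderOf (g : G ⧸ Z) = 2 ↔ g ∉ Z ∧ g * g ∈ Z := by
  rw [orderOf_eq_prime_iff, pow_two, ← QuotientGroup.mk_mul, QuotientGroup.eq_one_iff, ne_eq,
    QuotientGroup.eq_one_iff, and_comm]

/-- [CNT] -/
theorem card_classes {Q : Type*} [Group Q] (P : Q → Prop) (f : Q → ℕ) (S : Finset ℕ)
    (h1 : ∀ x y, IsConj x y → f x = f y) (h2 : ∀ x y, P x → P y → f x = f y → IsConj x y)
    (h3 : ∀ x, P x → f x ∈ S) (h4 : ∀ s ∈ S, ∃ x, P x ∧ f x = s) :
    Nat.card {C : ConjClasses Q // ∃ g, ConjClasses.mk g = C ∧ P g} = S.card := by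
  have hout : ∀ g : Q, f (Quotient.out (ConjClasses.mk g)) = f g := by
    intro g
    apply h1
    rw [← ConjClasses.mk_eq_mk_iff_isConj]
    exact Quotient.out_eq _
  let Φ : {C : ConjClasses Q // ∃ g, ConjClasses.mk g = C ∧ P g} → S := fun C =>
    ⟨f (Quotient.out C.1), by
      obtain ⟨g, hg, hP⟩ := C.2
      rw [← hg, hout]
      exact h3 g hP⟩
  have hbij : Function.Bijective Φ := by
    constructor
    · rintro ⟨C, g, rfl, hP⟩ ⟨C', g', rfl, hP'⟩ h
      have h5 : f (Quotient.out (ConjClasses.mk g)) = f (Quotient.out (ConjClasses.mk g')) :=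
        congrArg Subtype.val h
      rw [hout, hout] at h5
      apply Subtype.ext
      exact ConjClasses.mk_eq_mk_iff_isConj.mpr (h2 g g' hP hP' h5)
    · rintro ⟨s, hs⟩
      obtain ⟨x, hx, rfl⟩ := h4 s hs
      exact ⟨⟨ConjClasses.mk x, x, rfl, hx⟩, Subtype.ext (hout x)⟩
  rw [Nat.card_congr (Equiv.ofBijective Φ hbij), Nat.card_eq_fintype_card, Fintype.card_coe]

/-- [CS] -/
theorem card_S (n : ℕ) (hn : 2 ≤ n) :
    ((Finset.Icc 1 (n / 2)).image (fun j => n - j) ∪ (if Even n then {0} else ∅)).card =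
      n / 2 + (if Even n then 1 else 0) := by
  have h1 : ((Finset.Icc 1 (n / 2)).image (fun j => n - j)).card = n / 2 := by
    rw [Finset.card_image_of_injOn]
    · simp
    · intro a ha b hb hab
      simp only [Finset.coe_Icc, Set.mem_Icc] at ha hb
      simp only at hab
      omega
  by_cases he : Even n
  · rw [if_pos he, if_pos he, Finset.card_union_of_disjoint, h1, Finset.card_singleton]
    rw [Finset.disjoint_singleton_right, Finset.mem_image]
    rintro ⟨j, hj, h0⟩
    rw [Finset.mem_Icc] at hj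
    omega
  · rw [if_neg he, if_neg he, Finset.union_empty, h1, add_zero]

end Cfsg.Agent.Lib.Helper65.PI
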