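import Cfsg.Agent.Lib.Helper65.PI.Ex

/-! Ladder PI (S2577): transfer to `GL_n(F)` modulo its centre. -/

set_option autoImplicit false

namespace Cfsg.Agent.Lib.Helper65.PI

open Module

section mat
variable {F : Type*} [Field F] [Fintype F]
set_option linter.unusedSectionVars false
set_option linter.unusedVariables false

theorem grp_center_val {n : ℕ} {z : GL (Fin n) F} (hz : z ∈ Subgroup.center (GL (Fin n) F)) :
    ∃ c : F, c ≠ 0 ∧ (z : Matrix (Fin n) (Fin n) F) = c • (1 : Matrix (Fin n) (Fin n) F) := by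
  rw [Matrix.GeneralLinearGroup.center_eq_range_scalar] at hz
  obtain ⟨a, rfl⟩ := hz
  refine ⟨(a : F), a.ne_zero, ?_⟩
  simp [Matrix.smul_one_eq_diagonal]

theorem grp_mem_center {n : ℕ} {z : GL (Fin n) F} (c : F)
    (hz : (z : Matrix (Fin n) (Fin n) F) = c • (1 : Matrix (Fin n) (Fin n) F)) :
    z ∈ Subgroup.center (GL (Fin n) F) := by
  rw [Matrix.GeneralLinearGroup.mem_center_iff_val_mem_range_scalar]
  exact ⟨c, by rw [hz]; simp [Matrix.smul_one_eq_diagonal]⟩

/-- the linear equivalence attached to an element of `GL`. -/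
noncomputable def grpEquiv {n : ℕ} (h : GL (Fin n) F) : (Fin n → F) ≃ₗ[F] (Fin n → F) :=
  Matrix.toLin'OfInv (M := (h⁻¹ : GL (Fin n) F).1) (M' := h.1) (by simp) (by simp)

theorem grpEquiv_apply {n : ℕ} (h : GL (Fin n) F) (v : Fin n → F) :
    grpEquiv h v = Matrix.toLin' h.1 v := rfl

/-- [PM] -/
theorem pinv_mk (n : ℕ) (g : GL (Fin n) F) :
    pinv n (g : GL (Fin n) F ⧸ Subgroup.center (GL (Fin n) F)) =
      mx (Matrix.toLin' (g : Matrix (Fin n) (Fin n) F)) := by
  obtain ⟨z, hz⟩ := QuotientGroup.mk_out_eq_mul (Subgroup.center (GL (Fin n) F)) g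
  obtain ⟨c, hc, hzc⟩ := grp_center_val z.2
  unfold pinv
  rw [hz]
  have : ((g * (z : GL (Fin n) F) : GL (Fin n) F) : Matrix (Fin n) (Fin n) F) = c • g.1 := by
    rw [Units.val_mul, hzc]; simp
  rw [this, map_smul, mx_smul _ _ hc]

/-- [PC] -/
theorem pinv_conj (n : ℕ) (x y : GL (Fin n) F ⧸ Subgroup.center (GL (Fin n) F))
    (h : IsConj x y) : pinv n x = pinv n y := by
  obtain ⟨c, hc⟩ := isConj_iff.mp h
  induction x using QuotientGroup.induction_on with | _ g => ?_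
  induction c using QuotientGroup.induction_on with | _ k => ?_
  subst hc
  have : ((k : GL (Fin n) F ⧸ Subgroup.center (GL (Fin n) F)) *
      (g : GL (Fin n) F ⧸ Subgroup.center (GL (Fin n) F)) *
      (k : GL (Fin n) F ⧸ Subgroup.center (GL (Fin n) F))⁻¹) =
      ((k * g * k⁻¹ : GL (Fin n) F) : GL (Fin n) F ⧸ Subgroup.center (GL (Fin n) F)) := rfl
  rw [this, pinv_mk, pinv_mk]
  refine mx_conj _ _ (grpEquiv k) ?_
  intro v
  rw [grpEquiv_apply, grpEquiv_apply]
  simp only [Matrix.toLin'_apply, Units.val_mul, Matrix.mulVec_mulVec]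
  congr 1
  rw [Matrix.mul_assoc, Matrix.mul_assoc]
  have : (k⁻¹ : GL (Fin n) F).1 * k.1 = 1 := by simp
  rw [this, Matrix.mul_one]

theorem grp_sq {n : ℕ} {g : GL (Fin n) F} (hg : g * g ∈ Subgroup.center (GL (Fin n) F)) :
    ∃ l : F, l ≠ 0 ∧ ∀ v, Matrix.toLin' g.1 (Matrix.toLin' g.1 v) = l • v := by
  obtain ⟨l, hl, h⟩ := grp_center_val hg
  refine ⟨l, hl, fun v => ?_⟩
  rw [Units.val_mul] at h
  simp only [Matrix.toLin'_apply, Matrix.mulVec_mulVec, h, Matrix.smul_mulVec, Matrix.one_mulVec]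

theorem grp_nonscalar {n : ℕ} {g : GL (Fin n) F} (hg : g ∉ Subgroup.center (GL (Fin n) F)) :
    ∀ c : F, ∃ v, Matrix.toLin' g.1 v ≠ c • v := by
  intro c
  by_contra hcon
  push Not at hcon
  apply hg
  apply grp_mem_center c
  apply Matrix.toLin'.injective
  apply LinearMap.ext
  intro v
  simp only [hcon, map_smul, Matrix.toLin'_one, LinearMap.smul_apply,
    LinearMap.id_apply]

/-- [PJ] -/
theorem isConj_of_pinv_eq (h2 : (2 : F) ≠ 0) (n : ℕ) (hn : 2 ≤ n)
    (x y : GL (Fin n) F ⧸ Subgroup.center (GL (Fin n) F))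
    (hx : orderOf x = 2) (hy : orderOf y = 2) (h : pinv n x = pinv n y) : IsConj x y := by
  induction x using QuotientGroup.induction_on with | _ g => ?_
  induction y using QuotientGroup.induction_on with | _ g' => ?_
  rw [orderOf_mk_eq_two_iff] at hx hy
  rw [pinv_mk, pinv_mk] at h
  obtain ⟨l, hl, hT⟩ := grp_sq hx.2
  obtain ⟨l', hl', hT'⟩ := grp_sq hy.2
  obtain ⟨e, c, hc, he⟩ := classify h2 _ _ l l' hl hl' hT hT'
    (by rw [Module.finrank_fin_fun]; omega) h
  -- e as an element of GL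
  let k : GL (Fin n) F := ⟨LinearMap.toMatrix' e.toLinearMap, LinearMap.toMatrix' e.symm.toLinearMap,
    by rw [← LinearMap.toMatrix'_comp]; simp, by rw [← LinearMap.toMatrix'_comp]; simp⟩
  let z : GL (Fin n) F := ⟨c • 1, c⁻¹ • 1, by simp [smul_smul, hc], by simp [smul_smul, hc]⟩
  have hz : z ∈ Subgroup.center (GL (Fin n) F) := grp_mem_center c rfl
  have hk : k * g = z * g' * k := by
    apply Units.ext
    apply Matrix.toLin'.injective
    apply LinearMap.ext
    intro v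
    have h1 : Matrix.toLin' k.1 = e.toLinearMap := Matrix.toLin'_toMatrix' _
    simp only [Units.val_mul, Matrix.toLin'_mul, LinearMap.comp_apply, h1]
    have h3 : Matrix.toLin' z.1 = c • LinearMap.id := by
      show Matrix.toLin' (c • (1 : Matrix (Fin n) (Fin n) F)) = _
      rw [map_smul, Matrix.toLin'_one]
    rw [h3]
    simpa using he v
  rw [isConj_iff]
  refine ⟨(k : GL (Fin n) F ⧸ Subgroup.center (GL (Fin n) F)), ?_⟩
  have h4 : k * g * k⁻¹ = z * g' := by rw [hk]; group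
  have h5 : ((k : GL (Fin n) F ⧸ Subgroup.center (GL (Fin n) F)) *
      (g : GL (Fin n) F ⧸ Subgroup.center (GL (Fin n) F)) *
      (k : GL (Fin n) F ⧸ Subgroup.center (GL (Fin n) F))⁻¹) =
      ((k * g * k⁻¹ : GL (Fin n) F) : GL (Fin n) F ⧸ Subgroup.center (GL (Fin n) F)) := rfl
  rw [h5, h4, QuotientGroup.mk_mul, (QuotientGroup.eq_one_iff z).mpr hz, one_mul]

/-- [PR] -/
theorem pinv_mem (h2 : (2 : F) ≠ 0) (n : ℕ) (hn : 2 ≤ n)
    (x : GL (Fin n) F ⧸ Subgroup.center (GL (Fin n) F)) (hx : orderOf x = 2) :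
    pinv n x ∈ (Finset.Icc 1 (n / 2)).image (fun j => n - j) ∪ (if Even n then {0} else ∅) := by
  induction x using QuotientGroup.induction_on with | _ g => ?_
  rw [orderOf_mk_eq_two_iff] at hx
  rw [pinv_mk]
  obtain ⟨l, hl, hT⟩ := grp_sq hx.2
  have := mx_mem h2 _ l hl hT (grp_nonscalar hx.1)
  rw [Module.finrank_fin_fun] at this
  rw [Finset.mem_union]
  rcases this with ⟨j, hj1, hj2, hj⟩ | ⟨he, h0⟩
  · left
    rw [Finset.mem_image]
    exact ⟨j, Finset.mem_Icc.mpr ⟨hj1, hj2⟩, hj.symm⟩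
  · right
    rw [if_pos he, h0]; simp

/-- [PE] -/
theorem exists_pinv (h2 : (2 : F) ≠ 0) (n : ℕ) (hn : 2 ≤ n) (s : ℕ)
    (hs : s ∈ (Finset.Icc 1 (n / 2)).image (fun j => n - j) ∪ (if Even n then {0} else ∅)) :
    ∃ x : GL (Fin n) F ⧸ Subgroup.center (GL (Fin n) F), orderOf x = 2 ∧ pinv n x = s := by
  rw [Finset.mem_union] at hs
  rcases hs with hs | hs
  · rw [Finset.mem_image] at hs
    obtain ⟨j, hj, rfl⟩ := hs
    rw [Finset.mem_Icc] at hj
    obtain ⟨g, hg1, hg2, hg3⟩ := exists_typeA h2 n j hj.1 hj.2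
    refine ⟨g, ?_, ?_⟩
    · rw [orderOf_mk_eq_two_iff]
      exact ⟨hg2, by rw [hg1]; exact Subgroup.one_mem _⟩
    · rw [pinv_mk, hg3]
  · by_cases he : Even n
    · rw [if_pos he, Finset.mem_singleton] at hs
      subst hs
      obtain ⟨g, hg1, hg2, hg3⟩ := exists_typeB h2 n he hn
      refine ⟨g, ?_, ?_⟩
      · rw [orderOf_mk_eq_two_iff]
        exact ⟨hg2, hg1⟩
      · rw [pinv_mk, hg3]
    · rw [if_neg he] at hs
      simp at hs

end mat

end Cfsg.Agent.Lib.Helper65.PI
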