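import Cfsg.Agent.Lib.Helper65.PI.Defs

/-! Ladder PI (S2577): linear algebra, type A. -/

set_option autoImplicit false

namespace Cfsg.Agent.Lib.Helper65.PI

open Module

variable {F : Type*} [Field F] {V : Type*} [AddCommGroup V] [Module F V]

/-- [LA1] -/
theorem isCompl_eig (h2 : (2 : F) ≠ 0) (T : V →ₗ[F] V) (μ : F) (hμ : μ ≠ 0)
    (hT : ∀ v, T (T v) = (μ * μ) • v) :
    IsCompl (End.eigenspace T μ) (End.eigenspace T (-μ)) := by
  constructor
  · rw [Submodule.disjoint_def]
    intro v h1 h3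
    rw [End.mem_eigenspace_iff] at h1 h3
    have h4 : (2 * μ) • v = 0 := by
      have : μ • v = (-μ) • v := h1.symm.trans h3
      rw [two_mul, add_smul]
      nth_rewrite 2 [this]
      rw [neg_smul, add_neg_cancel]
    exact (smul_eq_zero.mp h4).resolve_left (mul_ne_zero h2 hμ)
  · rw [codisjoint_iff, eq_top_iff]
    intro v _
    have hv : v = (2 * μ)⁻¹ • (T v + μ • v) + (-(2 * μ)⁻¹) • (T v - μ • v) := by
      have h5 : (2 * μ)⁻¹ • (T v + μ • v) + (-(2 * μ)⁻¹) • (T v - μ • v)
          = ((2 * μ)⁻¹ * (2 * μ)) • v := by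
        module
      rw [h5, inv_mul_cancel₀ (mul_ne_zero h2 hμ), one_smul]
    rw [hv]
    apply Submodule.add_mem_sup
    · apply Submodule.smul_mem
      rw [End.mem_eigenspace_iff, map_add, map_smul, hT, smul_add, mul_smul, add_comm]
    · apply Submodule.smul_mem
      rw [End.mem_eigenspace_iff, map_sub, map_smul, hT]
      module

/-- [LA2] -/
theorem eig_eq_bot (T : V →ₗ[F] V) (l ν : F) (hT : ∀ v, T (T v) = l • v) (hν : ν * ν ≠ l) :
    End.eigenspace T ν = ⊥ := by
  rw [eq_bot_iff]
  intro v hv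
  rw [End.mem_eigenspace_iff] at hv
  have h1 : (ν * ν - l) • v = 0 := by
    rw [sub_smul, ← hT, hv, map_smul, hv, mul_smul, sub_self]
  exact (smul_eq_zero.mp h1).resolve_left (sub_ne_zero.mpr hν)

/-- [LA3] -/
theorem mx_typeA [Fintype F] [FiniteDimensional F V] (h2 : (2 : F) ≠ 0) (T : V →ₗ[F] V) (μ : F)
    (hμ : μ ≠ 0) (hT : ∀ v, T (T v) = (μ * μ) • v) :
    mx T = max (finrank F (End.eigenspace T μ)) (finrank F (End.eigenspace T (-μ))) ∧
      finrank F (End.eigenspace T μ) + finrank F (End.eigenspace T (-μ)) = finrank F V := by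
  refine ⟨?_, Submodule.finrank_add_eq_of_isCompl (isCompl_eig h2 T μ hμ hT)⟩
  apply le_antisymm
  · unfold mx
    apply Finset.sup_le
    intro ν _
    by_cases h1 : ν = μ
    · subst h1; exact le_max_left _ _
    by_cases h3 : ν = -μ
    · subst h3; exact le_max_right _ _
    have : ν * ν ≠ μ * μ := by
      intro h
      rcases mul_self_eq_mul_self_iff.mp h with h | h
      · exact h1 h
      · exact h3 h
    rw [eig_eq_bot T _ ν hT this, finrank_bot]
    exact Nat.zero_le _
  · apply max_le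
    · exact Finset.le_sup (f := fun μ : F => finrank F (End.eigenspace T μ)) (Finset.mem_univ μ)
    · exact Finset.le_sup (f := fun μ : F => finrank F (End.eigenspace T μ)) (Finset.mem_univ (-μ))

/-- [LA4] -/
theorem conj_typeA [FiniteDimensional F V] (h2 : (2 : F) ≠ 0) (T T' : V →ₗ[F] V) (μ μ' : F)
    (hμ : μ ≠ 0) (hμ' : μ' ≠ 0) (hT : ∀ v, T (T v) = (μ * μ) • v)
    (hT' : ∀ v, T' (T' v) = (μ' * μ') • v)
    (hk : finrank F (End.eigenspace T μ) = finrank F (End.eigenspace T' μ')) :
    ∃ e : V ≃ₗ[F] V, ∀ v, e (T v) = (μ * μ'⁻¹) • T' (e v) := by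
  have c1 := isCompl_eig h2 T μ hμ hT
  have c2 := isCompl_eig h2 T' μ' hμ' hT'
  have s1 := Submodule.finrank_add_eq_of_isCompl c1
  have s2 := Submodule.finrank_add_eq_of_isCompl c2
  have hk' : finrank F (End.eigenspace T (-μ)) = finrank F (End.eigenspace T' (-μ')) := by omega
  let e1 := LinearEquiv.ofFinrankEq _ _ hk
  let e2 := LinearEquiv.ofFinrankEq _ _ hk'
  let e : V ≃ₗ[F] V := (Submodule.prodEquivOfIsCompl _ _ c1).symm.trans
    ((e1.prodCongr e2).trans (Submodule.prodEquivOfIsCompl _ _ c2))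
  refine ⟨e, ?_⟩
  have key : ∀ (x : End.eigenspace T μ) (y : End.eigenspace T (-μ)),
      e ((x : V) + (y : V)) = (e1 x : V) + (e2 y : V) := by
    intro x y
    have : (Submodule.prodEquivOfIsCompl _ _ c1).symm ((x : V) + (y : V)) = (x, y) := by
      rw [LinearEquiv.symm_apply_eq]; simp
    simp only [e, LinearEquiv.trans_apply, this]
    simp
  intro v
  obtain ⟨⟨x, y⟩, rfl⟩ := (Submodule.prodEquivOfIsCompl _ _ c1).surjective v
  simp only [Submodule.coe_prodEquivOfIsCompl']
  have hx := End.mem_eigenspace_iff.mp x.2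
  have hy := End.mem_eigenspace_iff.mp y.2
  have hx' := End.mem_eigenspace_iff.mp (e1 x).2
  have hy' := End.mem_eigenspace_iff.mp (e2 y).2
  have h3 : T ((x : V) + (y : V)) = ((μ • x : End.eigenspace T μ) : V)
      + (((-μ) • y : End.eigenspace T (-μ)) : V) := by
    rw [map_add, hx, hy]; rfl
  rw [h3, key, key, map_add, hx', hy', map_smul, map_smul, smul_add, smul_smul, smul_smul]
  have h4 : μ * μ'⁻¹ * μ' = μ := by field_simp
  have h5 : μ * μ'⁻¹ * -μ' = -μ := by field_simp
  rw [h4, h5]; rfl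

/-- [MS] -/
theorem mx_smul [Fintype F] (T : V →ₗ[F] V) (c : F) (hc : c ≠ 0) : mx (c • T) = mx T := by
  have key : ∀ μ : F, End.eigenspace (c • T) (c * μ) = End.eigenspace T μ := by
    intro μ
    ext v
    rw [End.mem_eigenspace_iff, End.mem_eigenspace_iff, LinearMap.smul_apply, mul_smul]
    exact ⟨fun h => smul_right_injective V hc h, fun h => by rw [h]⟩
  unfold mx
  apply le_antisymm
  · apply Finset.sup_le
    intro ν _
    have : ν = c * (c⁻¹ * ν) := by field_simp
    rw [this, key]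
    exact Finset.le_sup (f := fun μ : F => finrank F (End.eigenspace T μ)) (Finset.mem_univ _)
  · apply Finset.sup_le
    intro ν _
    rw [← key]
    exact Finset.le_sup (f := fun μ : F => finrank F (End.eigenspace (c • T) μ)) (Finset.mem_univ _)

/-- [MC] -/
theorem mx_conj [Fintype F] (T T' : V →ₗ[F] V) (e : V ≃ₗ[F] V) (h : ∀ v, e (T v) = T' (e v)) :
    mx T = mx T' := by
  unfold mx
  congr 1
  funext μ
  have : End.eigenspace T' μ = (End.eigenspace T μ).map e.toLinearMap := by
    ext w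
    rw [Submodule.mem_map, End.mem_eigenspace_iff]
    constructor
    · intro hw
      refine ⟨e.symm w, ?_, by simp⟩
      rw [End.mem_eigenspace_iff]
      apply e.injective
      rw [h, map_smul]
      simpa using hw
    · rintro ⟨v, hv, rfl⟩
      rw [End.mem_eigenspace_iff] at hv
      show T' (e v) = μ • e v
      rw [← h, hv, map_smul]
  rw [this]
  exact (LinearEquiv.finrank_map_eq e _).symm

end Cfsg.Agent.Lib.Helper65.PI
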