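import Cfsg.Agent.Lib.Helper65.PI.LinA

/-! Ladder PI (S2577): linear algebra, type B and the classification. -/

set_option autoImplicit false

namespace Cfsg.Agent.Lib.Helper65.PI

open Module

variable {F : Type*} [Field F] {V : Type*} [AddCommGroup V] [Module F V]

/-- [LB1] -/
theorem exists_compl_typeB [FiniteDimensional F V] (T : V →ₗ[F] V) (l : F) (hl : ¬ IsSquare l)
    (hT : ∀ v, T (T v) = l • v) : ∃ W : Submodule F V, IsCompl W (W.map T) := by
  obtain ⟨W, hW, hmax⟩ := (wellFounded_gt (α := Submodule F V)).has_min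
    {W : Submodule F V | Disjoint W (W.map T)} ⟨⊥, by simp⟩
  refine ⟨W, hW, ?_⟩
  rw [codisjoint_iff]
  by_contra hne
  obtain ⟨v, -, hv⟩ := SetLike.exists_of_lt (lt_top_iff_ne_top.mpr hne)
  set U := W ⊔ W.map T with hU
  have hUT : ∀ u ∈ U, T u ∈ U := by
    intro u hu
    obtain ⟨w, hw, y, hy, rfl⟩ := Submodule.mem_sup.mp hu
    obtain ⟨w', hw', rfl⟩ := Submodule.mem_map.mp hy
    rw [map_add, hT, add_comm]
    exact Submodule.add_mem_sup (W.smul_mem _ hw') (Submodule.mem_map_of_mem hw)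
  have hWU : W ≤ U := le_sup_left
  have hTWU : W.map T ≤ U := le_sup_right
  apply hmax (W ⊔ Submodule.span F {v})
  · show Disjoint _ _
    rw [Submodule.disjoint_def]
    intro x hx1 hx2
    obtain ⟨w, hw, y, hy, rfl⟩ := Submodule.mem_sup.mp hx1
    obtain ⟨a, rfl⟩ := Submodule.mem_span_singleton.mp hy
    obtain ⟨x', hx', hxx⟩ := Submodule.mem_map.mp hx2
    obtain ⟨w', hw', y', hy', rfl⟩ := Submodule.mem_sup.mp hx'
    obtain ⟨b, rfl⟩ := Submodule.mem_span_singleton.mp hy'
    rw [map_add, map_smul] at hxx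
    have h1 : a • v - b • T v ∈ U := by
      have : a • v - b • T v = T w' - w := by
        have h := hxx
        rw [← sub_eq_zero] at h ⊢
        rw [← neg_eq_zero, ← h]; abel
      rw [this]
      exact U.sub_mem (hTWU (Submodule.mem_map_of_mem hw')) (hWU hw)
    have h3 := hUT _ h1
    rw [map_sub, map_smul, map_smul, hT] at h3
    have h4 : (a * a - b * b * l) • v ∈ U := by
      have : (a * a - b * b * l) • v = a • (a • v - b • T v) + b • (a • T v - b • l • v) := by
        module
      rw [this]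
      exact U.add_mem (U.smul_mem _ h1) (U.smul_mem _ h3)
    have h5 : a * a - b * b * l = 0 := by
      by_contra h
      apply hv
      have := U.smul_mem (a * a - b * b * l)⁻¹ h4
      rwa [smul_smul, inv_mul_cancel₀ h, one_smul] at this
    have hb : b = 0 := by
      by_contra hb
      apply hl
      refine ⟨a / b, ?_⟩
      field_simp
      linear_combination -h5
    subst hb
    have ha : a = 0 := by simpa using h5
    subst ha
    simp only [zero_smul, add_zero] at hxx ⊢
    exact (Submodule.disjoint_def.mp hW) w hw (hxx ▸ Submodule.mem_map_of_mem hw')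
  · show W < W ⊔ Submodule.span F {v}
    apply lt_of_le_of_ne le_sup_left
    intro h
    apply hv
    apply hWU
    rw [h]
    exact Submodule.mem_sup_right (Submodule.mem_span_singleton_self v)

theorem lb_inj (T : V →ₗ[F] V) (l : F) (hl : ¬ IsSquare l)
    (hT : ∀ v, T (T v) = l • v) : Function.Injective T := by
  have hl0 : l ≠ 0 := by
    rintro rfl
    exact hl ⟨0, by simp⟩
  intro x y hxy
  have := congrArg T hxy
  rw [hT, hT] at this
  exact smul_right_injective V hl0 this

/-- the equivalence `W × W ≃ V`, `(w₁, w₂) ↦ w₁ + T w₂`. -/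
noncomputable def lbEquiv (T : V →ₗ[F] V) (hinj : Function.Injective T) (W : Submodule F V)
    (h : IsCompl W (W.map T)) : (W × W) ≃ₗ[F] V :=
  ((LinearEquiv.refl F W).prodCongr (Submodule.equivMapOfInjective T hinj W)).trans
    (Submodule.prodEquivOfIsCompl W (W.map T) h)

theorem lbEquiv_apply (T : V →ₗ[F] V) (hinj : Function.Injective T) (W : Submodule F V)
    (h : IsCompl W (W.map T)) (x y : W) : lbEquiv T hinj W h (x, y) = (x : V) + T (y : V) := by
  simp [lbEquiv]

theorem lb_finrank [FiniteDimensional F V] (T : V →ₗ[F] V) (hinj : Function.Injective T)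
    (W : Submodule F V) (h : IsCompl W (W.map T)) : finrank F W + finrank F W = finrank F V := by
  have := Submodule.finrank_add_eq_of_isCompl h
  rwa [← LinearEquiv.finrank_eq (Submodule.equivMapOfInjective T hinj W)] at this

/-- [LB2] -/
theorem conj_typeB [FiniteDimensional F V] (T T' : V →ₗ[F] V) (l : F) (hl : ¬ IsSquare l)
    (hT : ∀ v, T (T v) = l • v) (hT' : ∀ v, T' (T' v) = l • v) :
    ∃ e : V ≃ₗ[F] V, ∀ v, e (T v) = T' (e v) := by
  obtain ⟨W, hW⟩ := exists_compl_typeB T l hl hT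
  obtain ⟨W', hW'⟩ := exists_compl_typeB T' l hl hT'
  have i1 := lb_inj T l hl hT
  have i2 := lb_inj T' l hl hT'
  have f1 := lb_finrank T i1 W hW
  have f2 := lb_finrank T' i2 W' hW'
  let e0 : W ≃ₗ[F] W' := LinearEquiv.ofFinrankEq _ _ (by omega)
  let e : V ≃ₗ[F] V := (lbEquiv T i1 W hW).symm.trans ((e0.prodCongr e0).trans (lbEquiv T' i2 W' hW'))
  have key : ∀ x y : W, e ((x : V) + T (y : V)) = (e0 x : V) + T' (e0 y : V) := by
    intro x y
    have : (lbEquiv T i1 W hW).symm ((x : V) + T (y : V)) = (x, y) := by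
      rw [LinearEquiv.symm_apply_eq, lbEquiv_apply]
    simp only [e, LinearEquiv.trans_apply, this]
    rw [LinearEquiv.prodCongr_apply, lbEquiv_apply]
  refine ⟨e, fun v => ?_⟩
  obtain ⟨⟨x, y⟩, rfl⟩ := (lbEquiv T i1 W hW).surjective v
  rw [lbEquiv_apply, key, map_add T, hT, map_add T', hT']
  have : l • (y : V) + T (x : V) = ((l • y : W) : V) + T (x : V) := rfl
  rw [add_comm, this, key, map_smul, add_comm]
  rfl

/-- [LB3] -/
theorem even_typeB [FiniteDimensional F V] (T : V →ₗ[F] V) (l : F) (hl : ¬ IsSquare l)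
    (hT : ∀ v, T (T v) = l • v) : Even (finrank F V) := by
  obtain ⟨W, hW⟩ := exists_compl_typeB T l hl hT
  exact ⟨_, (lb_finrank T (lb_inj T l hl hT) W hW).symm⟩

/-- [LB4] -/
theorem mx_typeB [Fintype F] (T : V →ₗ[F] V) (l : F) (hl : ¬ IsSquare l)
    (hT : ∀ v, T (T v) = l • v) : mx T = 0 := by
  unfold mx
  apply Nat.eq_zero_of_le_zero
  apply Finset.sup_le
  intro ν _
  rw [eig_eq_bot T l ν hT (fun h => hl ⟨ν, h.symm⟩), finrank_bot]

/-- [CLS] -/
theorem classify [Fintype F] [FiniteDimensional F V] (h2 : (2 : F) ≠ 0) (T T' : V →ₗ[F] V)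
    (l l' : F) (hl : l ≠ 0) (hl' : l' ≠ 0) (hT : ∀ v, T (T v) = l • v)
    (hT' : ∀ v, T' (T' v) = l' • v) (hV : 0 < finrank F V) (h : mx T = mx T') :
    ∃ (e : V ≃ₗ[F] V) (c : F), c ≠ 0 ∧ ∀ v, e (T v) = c • T' (e v) := by
  by_cases s1 : IsSquare l
  · obtain ⟨μ, rfl⟩ := s1
    have hμ : μ ≠ 0 := fun h => hl (by rw [h, mul_zero])
    obtain ⟨a1, a2⟩ := mx_typeA h2 T μ hμ hT
    by_cases s2 : IsSquare l'
    · obtain ⟨μ', rfl⟩ := s2
      have hμ' : μ' ≠ 0 := fun h => hl' (by rw [h, mul_zero])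
      obtain ⟨b1, b2⟩ := mx_typeA h2 T' μ' hμ' hT'
      by_cases hk : finrank F (End.eigenspace T μ) = finrank F (End.eigenspace T' μ')
      · obtain ⟨e, he⟩ := conj_typeA h2 T T' μ μ' hμ hμ' hT hT' hk
        exact ⟨e, _, mul_ne_zero hμ (inv_ne_zero hμ'), he⟩
      · have hk' : finrank F (End.eigenspace T μ) = finrank F (End.eigenspace T' (-μ')) := by
          rw [a1, b1] at h
          omega
        obtain ⟨e, he⟩ := conj_typeA h2 T T' μ (-μ') hμ (neg_ne_zero.mpr hμ') hT
          (by simpa using hT') hk'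
        exact ⟨e, _, mul_ne_zero hμ (inv_ne_zero (neg_ne_zero.mpr hμ')), he⟩
    · exfalso
      rw [mx_typeB T' l' s2 hT', a1] at h
      omega
  · by_cases s2 : IsSquare l'
    · exfalso
      obtain ⟨μ', rfl⟩ := s2
      have hμ' : μ' ≠ 0 := fun h => hl' (by rw [h, mul_zero])
      obtain ⟨b1, b2⟩ := mx_typeA h2 T' μ' hμ' hT'
      rw [mx_typeB T l s1 hT, b1] at h
      omega
    · classical
      have hsq : IsSquare (l * l'⁻¹) := by
        rw [← quadraticChar_one_iff_isSquare (mul_ne_zero hl (inv_ne_zero hl')), map_mul,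
          quadraticChar_neg_one_iff_not_isSquare.mpr s1]
        have : ¬ IsSquare l'⁻¹ := by simpa using s2
        rw [quadraticChar_neg_one_iff_not_isSquare.mpr this]
        norm_num
      obtain ⟨c, hc⟩ := hsq
      have hc0 : c ≠ 0 := by
        rintro rfl
        simp at hc
        tauto
      obtain ⟨e, he⟩ := conj_typeB T (c • T') l s1 hT (by
        intro v
        simp only [LinearMap.smul_apply, map_smul, hT', smul_smul]
        congr 1
        rw [← mul_assoc, ← hc]; field_simp)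
      exact ⟨e, c, hc0, he⟩

/-- [RNG] -/
theorem mx_mem [Fintype F] [FiniteDimensional F V] (h2 : (2 : F) ≠ 0) (T : V →ₗ[F] V) (l : F)
    (hl : l ≠ 0) (hT : ∀ v, T (T v) = l • v) (hns : ∀ c : F, ∃ v, T v ≠ c • v) :
    (∃ j, 1 ≤ j ∧ j ≤ finrank F V / 2 ∧ mx T = finrank F V - j) ∨
      (Even (finrank F V) ∧ mx T = 0) := by
  by_cases s1 : IsSquare l
  · left
    obtain ⟨μ, rfl⟩ := s1
    have hμ : μ ≠ 0 := fun h => hl (by rw [h, mul_zero])
    obtain ⟨a1, a2⟩ := mx_typeA h2 T μ hμ hT
    have hc := isCompl_eig h2 T μ hμ hT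
    have p1 : 0 < finrank F (End.eigenspace T μ) := by
      rw [Nat.pos_iff_ne_zero]
      intro h0
      rw [Submodule.finrank_eq_zero] at h0
      rw [h0] at hc
      have := eq_top_of_bot_isCompl hc
      obtain ⟨v, hv⟩ := hns (-μ)
      apply hv
      rw [← End.mem_eigenspace_iff, this]
      trivial
    have p2 : 0 < finrank F (End.eigenspace T (-μ)) := by
      rw [Nat.pos_iff_ne_zero]
      intro h0
      rw [Submodule.finrank_eq_zero] at h0
      rw [h0] at hc
      have := eq_top_of_isCompl_bot hc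
      obtain ⟨v, hv⟩ := hns μ
      apply hv
      rw [← End.mem_eigenspace_iff, this]
      trivial
    refine ⟨min (finrank F (End.eigenspace T μ)) (finrank F (End.eigenspace T (-μ))), ?_, ?_, ?_⟩
    · omega
    · omega
    · omega
  · right
    exact ⟨even_typeB T l s1 hT, mx_typeB T l s1 hT⟩

end Cfsg.Agent.Lib.Helper65.PI
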